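import Mathlib
import Cfsg.Prelude.Def_Classical
import Cfsg.Agent.Lib.Comput.CentExt2
import Cfsg.Agent.Lib.J3.Iso

/-!
# `threeJ3` is a subgroup of the special unitary group
-/

set_option autoImplicit false
set_option maxRecDepth 100000

namespace CfsgLib.J3

open CfsgLib.Comput Cfsg.Spor Matrix

/-- product of `a` and the square of `b` on codes -/
def msq (a b : ℕ) : ℕ := if a = 0 ∨ b = 0 then 0 else (a + 2 * b) % 3 + 1

/-- code of the Hermitian product of two columns -/
def hcode (c : ℕ → ℕ → ℕ) (i j : ℕ) (n : ℕ) : ℕ := Nat.rec 0 (fun k r => r ^^^ msq (c k i) (c k j)) n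

/-- the matrix with codes `c` is unitary -/
noncomputable def unitOK (c : ℕ → ℕ → ℕ) : Bool :=
  allLt (fun i => allLt (fun j => band (Nat.ble (c i j) 3) (Nat.beq (hcode c i j 9) (if i = j then 1 else 0))) 9) 9

variable {F : Type*} [Field F] {ω : F}

theorem Hyp.f4_msq (h : Hyp F ω) {a b : ℕ} (ha : a ≤ 3) (hb : b ≤ 3) : f4 ω (msq a b) = f4 ω a * f4 ω b ^ 2 := by
  have h3 := omega_pow_three h.om
  interval_cases a <;> interval_cases b <;> simp [msq, f4_three h.two h.om]
  · linear_combination (-ω) * h3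
  · linear_combination (-1 : F) * h3
  · linear_combination (-ω ^ 2) * h3
  · linear_combination (-ω) * h3
  · linear_combination (-ω ^ 3 - 1) * h3

/-- the enumeration as an equivalence -/
noncomputable def eqv : Fin 9 ≃ F9 := Equiv.ofBijective (fun i => idx i) (by decide)

/-- the Hermitian form -/
def herm (u v : F9 → F) : F := ∑ z, u z * v z ^ 2

/-- the unitary group -/
def U (F : Type*) [Field F] : Subgroup (GL F9 F) := Cfsg.preserving (Units.coeHom _) herm

theorem Hyp.mem_U (h : Hyp F ω) {x : GL F9 F} {c : ℕ → ℕ → ℕ}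
    (hx : ∀ i j, (x : Matrix F9 F9 F) (idx i) (idx j) = f4 ω (c i j)) (hc : unitOK c = true) : x ∈ U F := by
  have : CharP F 2 := CharTwo.of_one_ne_zero_of_two_eq_zero one_ne_zero h.two
  have key : ∀ w z, ∑ k, (x : Matrix F9 F9 F) k w * (x : Matrix F9 F9 F) k z ^ 2 = if w = z then 1 else 0 := by
    intro w z
    obtain ⟨i, hi, rfl⟩ := enum.surj w
    obtain ⟨j, hj, rfl⟩ := enum.surj z
    have h1 : ∀ n ≤ 9, f4 ω (hcode c i j n) = ∑ k ∈ Finset.range n, f4 ω (c k i) * f4 ω (c k j) ^ 2 := by
      intro n hn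
      induction n with
      | zero => simp [hcode]
      | succ n ih =>
        rw [Finset.sum_range_succ, ← ih (by omega), ← h.f4_msq
          (Nat.le_of_ble_eq_true (band_eq_true.1 (allLt_sound (allLt_sound hc n hn) i hi)).1)
          (Nat.le_of_ble_eq_true (band_eq_true.1 (allLt_sound (allLt_sound hc n hn) j hj)).1), ← f4_xor h.two]
        rfl
    rw [← eqv.sum_comp]
    have h2 := h1 9 le_rfl
    rw [Nat.eq_of_beq_eq_true (band_eq_true.1 (allLt_sound (allLt_sound hc i hi) j hj)).2,
      ← Fin.sum_univ_eq_sum_range (fun k => f4 ω (c k i) * f4 ω (c k j) ^ 2)] at h2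
    have h3 : (if idx i = idx j then (1 : F) else 0) = f4 ω (if i = j then 1 else 0) := by
      by_cases hij : i = j
      · simp [hij]
      · rw [if_neg hij, if_neg fun e => hij (enum.inj i hi j hj e), f4_zero]
    rw [h3, h2]
    exact Finset.sum_congr rfl fun k _ => by rw [← hx, ← hx]; rfl
  intro u v
  change ∑ k, (∑ w, (x : Matrix F9 F9 F) k w * u w) * (∑ z, (x : Matrix F9 F9 F) k z * v z) ^ 2 = ∑ z, u z * v z ^ 2
  simp only [CharTwo.sum_sq, Finset.sum_mul_sum]
  rw [Finset.sum_comm]
  refine Finset.sum_congr rfl fun w _ => ?_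
  rw [Finset.sum_comm]
  have : ∀ z, ∑ k, (x : Matrix F9 F9 F) k w * u w * ((x : Matrix F9 F9 F) k z * v z) ^ 2 =
      (if w = z then 1 else 0) * (u w * v z ^ 2) := by
    intro z
    rw [← key, Finset.sum_mul]
    exact Finset.sum_congr rfl fun k _ => by ring
  simp [this]

theorem Hyp.le_U (h : Hyp F ω) : threeJ3 F ω ≤ U F := by
  rw [h.threeJ3_eq]
  refine cl_le.2 fun w _ => ev_mem_of_all (letters_mem (fun j => ?_) defs) w
  rcases j with _ | _ | _ | _ | j
  · exact h.mem_U (h.entE 0) (by decide +kernel)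
  · exact h.mem_U (h.entD 3) (by decide +kernel)
  · exact h.mem_U (entB (ω := ω) 4) (by decide +kernel)
  · exact h.mem_U (entC (ω := ω) 3) (by decide +kernel)
  · exact Subgroup.one_mem _

theorem det_eq_one [Fintype F] (hF : Fintype.card F = 4) (hω : ω ^ 2 + ω + 1 = 0) (x : threeJ3 F ω) :
    ((x : GL F9 F) : Matrix F9 F9 F).det = 1 := by
  have h := Hyp.of_card hF hω
  have := h.simple_J3
  have hk : Subgroup.center (threeJ3 F ω) ≤ (GeneralLinearGroup.det.comp (threeJ3 F ω).subtype).ker := by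
    intro y hy
    rw [h.mem_center_iff, GeneralLinearGroup.mem_center_iff_val_mem_range_scalar] at hy
    obtain ⟨a, ha⟩ := hy
    have h0 : a ≠ 0 := by
      rintro rfl
      exact (y : GL F9 F).ne_zero (ha.symm.trans (map_zero _))
    have h2 := FiniteField.pow_card_sub_one_eq_one a h0
    rw [hF] at h2
    have h3 : ((y : GL F9 F) : Matrix F9 F9 F).det = 1 := by
      rw [← ha, scalar_apply, det_diagonal, Finset.prod_const, Finset.card_univ, Fintype.card_prod, ZMod.card, pow_mul,
        h2, one_pow]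
    rw [MonoidHom.mem_ker, Units.ext_iff, MonoidHom.comp_apply, GeneralLinearGroup.val_det_apply,
      Subgroup.coe_subtype, h3, Units.val_one]
  have h1 := hom_eq_one_of_simple _ hk (by rw [h.card_J3]; norm_num) x
  rwa [Units.ext_iff, MonoidHom.comp_apply, GeneralLinearGroup.val_det_apply, Subgroup.coe_subtype,
    Units.val_one] at h1

theorem exists_SU [Fintype F] (hF : Fintype.card F = 4) (hω : ω ^ 2 + ω + 1 = 0) :
    ∃ H : Subgroup (Cfsg.SU 9 F 2), Nonempty (threeJ3 F ω ≃* H) := by
  have h := Hyp.of_card hF hω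
  let θ : threeJ3 F ω →* Cfsg.SU 9 F 2 :=
    { toFun := fun x => ⟨⟨reindexAlgEquiv F F eqv.symm ((x : GL F9 F) : Matrix F9 F9 F), by
          rw [det_reindexAlgEquiv, det_eq_one hF hω]⟩, by
        intro u v
        have h1 := h.le_U x.2 (u ∘ eqv.symm) (v ∘ eqv.symm)
        have h2 : ∀ u v : F9 → F, herm u v = Cfsg.hermForm 9 F 2 (u ∘ eqv) (v ∘ eqv) := fun u v =>
          (eqv.sum_comp _).symm
        rw [h2, h2] at h1
        change Cfsg.hermForm 9 F 2 (((x : GL F9 F) : Matrix F9 F9 F).submatrix eqv eqv *ᵥ u)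
          (((x : GL F9 F) : Matrix F9 F9 F).submatrix eqv eqv *ᵥ v) = _
        rw [submatrix_mulVec_equiv, submatrix_mulVec_equiv]
        simpa [Function.comp_assoc] using h1⟩
      map_one' := Subtype.ext (Subtype.ext (map_one (reindexAlgEquiv F F eqv.symm)))
      map_mul' := fun a b => Subtype.ext (Subtype.ext (map_mul (reindexAlgEquiv F F eqv.symm) _ _)) }
  refine ⟨θ.range, ⟨MonoidHom.ofInjective fun a b hab => ?_⟩⟩
  exact Subtype.ext (Units.ext ((reindexAlgEquiv F F eqv.symm).injective (congrArg (fun y => y.1.1) hab)))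

end CfsgLib.J3
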